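/- Characters of degree `p - 1` and self-centralizing elements of order `p`. -/
import Cfsg.Agent.H66.SzClass
import Cfsg.Agent.H29.Eigen
import Cfsg.Agent.H28.CharCenter
import Cfsg.Agent.H87.LinB
import Cfsg.Agent.H24.ClassCount

set_option autoImplicit false

namespace H87.DP

open Cfsg Finset Module
open scoped ComplexConjugate

theorem root_sum {n : ℕ} {z : ℂ} (hz : z ^ n = 1) :
    ∑ j ∈ range n, z ^ j = if z = 1 then (n : ℂ) else 0 := by
  split_ifs with h
  · simp [h]
  · have := mul_geom_sum z n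
    rw [hz, sub_self] at this
    exact (mul_eq_zero.1 this).resolve_left (sub_ne_zero.2 h)

variable {G : Type*} [Group G] [Finite G] {V : Type*} [AddCommGroup V] [Module ℂ V]
  [FiniteDimensional ℂ V] (ρ : Representation ℂ G V)

theorem eigen_fix (x : G) : ∃ m : ℕ,
    ∑ j ∈ range (orderOf x), ρ.character (x ^ j) = orderOf x * m ∧
    (orderOf x : ℝ) * (m ^ 2 + finrank ℂ V) ≤
      ∑ j ∈ range (orderOf x), ‖ρ.character (x ^ j)‖ ^ 2 + orderOf x * m ∧
    (m = 0 → ∀ a, ∑ j ∈ range (orderOf x), ρ.character (a * x ^ j) = 0) := by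
  classical
  obtain ⟨b, ε, h1, h2⟩ := H29.exists_eigenbasis ρ x (isOfFinOrder_of_finite x)
  have h3 : ∀ j i, ρ (x ^ j) (b i) = ε i ^ j • b i := fun j i => by
    rw [map_pow]; exact H29.pow_apply_of_eigen _ _ _ (h2 i) j
  have h4 : ∀ j, ρ.character (x ^ j) = ∑ i, ε i ^ j := fun j =>
    H29.trace_eq_sum_of_eigenbasis b _ _ (h3 j)
  set p := orderOf x
  have hp : p ≠ 0 := (orderOf_pos x).ne'
  refine ⟨#{i | ε i = 1}, ?_, ?_, fun h0 a => ?_⟩
  · simp_rw [h4]
    rw [sum_comm]
    simp_rw [root_sum (h1 _)]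
    rw [← sum_filter, sum_const, nsmul_eq_mul, mul_comm]
  · have h5 : ∀ i, conj (ε i) * ε i = 1 := fun i => by
      rw [Complex.conj_mul', H29.norm_eq_one_of_pow_eq_one' hp (h1 i)]; simp
    have h6 : ((∑ j ∈ range p, ‖ρ.character (x ^ j)‖ ^ 2 : ℝ) : ℂ) =
        (p * ∑ i, #{k | ε k = ε i} : ℕ) := by
      push_cast
      simp_rw [← Complex.conj_mul', h4, map_sum, sum_mul_sum, map_pow, ← mul_pow]
      rw [sum_comm, mul_sum]
      refine sum_congr rfl fun i _ => ?_
      rw [sum_comm]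
      have : ∀ k, ∑ j ∈ range p, (conj (ε i) * ε k) ^ j = if ε k = ε i then (p : ℂ) else 0 :=
        fun k => by
          rw [root_sum (by rw [mul_pow, ← map_pow, h1, h1]; simp)]
          refine if_congr ⟨fun e => ?_, fun e => e ▸ h5 i⟩ rfl rfl
          linear_combination ε i * e - ε k * h5 i
      simp_rw [this]
      rw [← sum_filter, sum_const, nsmul_eq_mul, mul_comm]
    rw [← Complex.ofReal_natCast, Complex.ofReal_inj] at h6
    rw [h6]
    have h7 : #{i | ε i = 1} ^ 2 + finrank ℂ V ≤ ∑ i, #{k | ε k = ε i} + #{i | ε i = 1} := by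
      have e1 : #{i | ε i = 1} ^ 2 = ∑ i, if ε i = 1 then #{i | ε i = 1} else 0 := by
        rw [← sum_filter, sum_const, smul_eq_mul, sq]
      have e2 : finrank ℂ V = ∑ _i : Fin (finrank ℂ V), 1 := by simp
      refine (congrArg₂ (· + ·) e1 e2).trans_le ?_
      conv_rhs => rw [card_filter]
      rw [← sum_add_distrib, ← sum_add_distrib]
      refine sum_le_sum fun i _ => ?_
      split_ifs with h
      · rw [h]
      · rw [zero_add, add_zero]; exact card_pos.2 ⟨i, by simp⟩
    rw [← Nat.cast_mul, ← Nat.cast_add, ← mul_add]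
    exact_mod_cast Nat.mul_le_mul_left p h7
  · have h5 : ∑ j ∈ range p, ρ (x ^ j) = 0 := b.ext fun i => by
      rw [LinearMap.sum_apply]
      simp_rw [h3]
      rw [← sum_smul, root_sum (h1 i), if_neg, zero_smul, LinearMap.zero_apply]
      exact fun e => card_ne_zero_of_mem (mem_filter.2 ⟨mem_univ i, e⟩) h0
    simp_rw [Representation.character, map_mul]
    rw [← map_sum, ← mul_sum, h5, mul_zero, map_zero]

theorem det_eq (y : G) {t : ℕ} (he : Even (orderOf y)) (ht : Odd t)
    (hd : finrank ℂ V = t * orderOf y) (h0 : ∀ j, y ^ j ≠ 1 → ρ.character (y ^ j) = 0) :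
    LinearMap.det (ρ y) = -1 := by
  classical
  obtain ⟨ε, h1, h2, h3, -⟩ := H29.exists_char_pow_eq_sum ρ y (isOfFinOrder_of_finite y)
  set e := orderOf y with hey
  have hp : 0 < e := orderOf_pos y
  have h4 := h3 1
  simp only [pow_one] at h4
  have hζ := Complex.isPrimitiveRoot_exp e hp.ne'
  have h5 : ∀ z ∈ Polynomial.nthRootsFinset e (1 : ℂ), #{i | ε i = z} = t := fun z hz => by
    rw [Polynomial.mem_nthRootsFinset hp] at hz
    have z0 : z ≠ 0 := fun h => by simp [h, hp.ne'] at hz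
    have e1 : ∑ i, ∑ j ∈ range e, (ε i * z⁻¹) ^ j = e * #{i | ε i = z} := by
      simp_rw [fun i => root_sum (show (ε i * z⁻¹) ^ e = 1 by rw [mul_pow, h1, inv_pow, hz]; simp),
        mul_inv_eq_one₀ z0]
      rw [← sum_filter, sum_const, nsmul_eq_mul, mul_comm]
    rw [sum_comm] at e1
    simp_rw [mul_pow, ← sum_mul, ← h2] at e1
    rw [sum_eq_single_of_mem 0 (mem_range.2 hp) fun j hj hj0 => by
      rw [h0 j (pow_ne_one_of_lt_orderOf hj0 (mem_range.1 hj)), zero_mul], pow_zero, pow_zero,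
      mul_one, Representation.char_one] at e1
    have : t * e = e * #{i | ε i = z} := hd.symm.trans (by exact_mod_cast e1)
    rw [mul_comm] at this
    exact (Nat.eq_of_mul_eq_mul_left hp this).symm
  have h6 := congrArg (Polynomial.eval 0) (Polynomial.X_pow_sub_one_eq_prod hp hζ)
  simp only [Polynomial.eval_sub, Polynomial.eval_pow, Polynomial.eval_X, Polynomial.eval_one,
    Polynomial.eval_prod, Polynomial.eval_C, zero_sub, zero_pow hp.ne'] at h6
  rw [prod_neg, hζ.card_nthRootsFinset, he.neg_one_pow, one_mul] at h6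
  rw [h4, ← prod_fiberwise_of_maps_to (g := ε) (t := Polynomial.nthRootsFinset e (1 : ℂ))
    fun i _ => (Polynomial.mem_nthRootsFinset hp _).2 (h1 i), ← ht.neg_one_pow, h6, ← prod_pow]
  refine prod_congr rfl fun z hz => ?_
  rw [prod_congr rfl fun i hi => (mem_filter.1 hi).2, prod_const, h5 z hz]

open Subgroup

variable {x : G} {p : ℕ}

omit [Finite G] in
theorem isCC (hp : p.Prime) (hx : orderOf x = p) (hC : centralizer ({x} : Set G) = zpowers x) :
    H66.IsCC (zpowers x) := fun u hu h1 => by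
  have : Fact (Nat.card (zpowers x)).Prime := ⟨by rwa [Nat.card_zpowers, hx]⟩
  have h2 : x ∈ zpowers u := by
    have := mem_zpowers_of_prime_card (G := zpowers x) rfl (g := ⟨u, hu⟩) (g' := ⟨x, mem_zpowers x⟩)
      fun e => h1 (congrArg Subtype.val e)
    obtain ⟨k, hk⟩ := this
    exact ⟨k, congrArg Subtype.val hk⟩
  rw [← hC]
  ext g
  rw [mem_centralizer_singleton_iff, mem_centralizer_singleton_iff]
  obtain ⟨k, rfl⟩ := hu
  obtain ⟨l, hl⟩ := h2
  exact ⟨fun h => hl ▸ ((show Commute g _ from h).zpow_right l).eq,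
    fun h => ((show Commute g _ from h).zpow_right k).eq⟩

theorem cnt (hp : p.Prime) (hx : orderOf x = p) (hC : centralizer ({x} : Set G) = zpowers x)
    {s : G} (hs : orderOf s = p) :
    {g | g⁻¹ * s * g ∈ (zpowers x : Set G)}.ncard = Nat.card (normalizer (zpowers x : Set G)) ∧
      Nat.card (centralizer ({s} : Set G)) = p := by
  have h := isCC hp hx hC
  have s1 : s ≠ 1 := fun e => hp.ne_one (by rw [← hs, e, orderOf_one])
  obtain ⟨c, hc⟩ := h.exists_conj_mem' s1 (by rw [Nat.card_zpowers, hx, ← hs, pow_orderOf_eq_one])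
  have c1 : c⁻¹ * s * c ≠ 1 := fun e => s1 (by
    calc s = c * (c⁻¹ * s * c) * c⁻¹ := by group
      _ = 1 := by rw [e]; group)
  constructor
  · rw [← SetLike.coe_sort_coe, Nat.card_coe_set_eq]
    refine Set.ncard_congr (fun g _ => g⁻¹ * c) (fun g hg => h.mem_normalizer hc c1 ?_)
      (fun a b _ _ e => by simpa using e) fun n hn => ⟨c * n⁻¹, ?_, by group⟩
    · have hg' : g⁻¹ * s * g ∈ zpowers x := hg
      convert hg' using 1; group
    · have := (mem_normalizer_iff.1 hn _).1 hc
      change _ ∈ zpowers x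
      convert this using 1; group
  · have := h.map_conj c s ⟨_, hc, by simp [mul_assoc]⟩ s1
    rw [this, card_map_of_injective (MulAut.conj c).injective, Nat.card_zpowers, hx]

theorem ti_sum [Fintype G] (hp : p.Prime) (hx : orderOf x = p)
    (hC : centralizer ({x} : Set G) = zpowers x) (F : G → ℝ) (hF : ∀ g s, F (g * s * g⁻¹) = F s) :
    Nat.card G * (∑ j ∈ range p, F (x ^ j) - F 1) =
      Nat.card (normalizer (zpowers x : Set G)) * ∑ s with orderOf s = p, F s := by
  classical
  have h1 : ∑ j ∈ range p, F (x ^ j) - F 1 = ∑ u, if orderOf u = p ∧ u ∈ zpowers x then F u else 0 := by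
    rw [← sum_filter, sub_eq_iff_eq_add', ← sum_insert (by simp [hp.ne_one.symm]), ← hx,
      ← sum_image fun a ha b hb e => pow_injOn_Iio_orderOf (mem_range.1 ha) (mem_range.1 hb) e,
      image_range_orderOf]
    refine sum_congr (Finset.ext fun u => ?_) fun _ _ => rfl
    simp only [Set.mem_toFinset, SetLike.mem_coe, mem_insert, mem_filter, mem_univ, true_and]
    refine ⟨fun hu => ?_, fun hu => hu.elim (fun e => e ▸ one_mem _) And.right⟩
    have := orderOf_dvd_of_mem_zpowers hu
    rw [hx, Nat.dvd_prime hp, orderOf_eq_one_iff] at this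
    exact this.imp_right fun e => ⟨hx ▸ e, hu⟩
  have h2 : ∀ g : G, (∑ u, if orderOf u = p ∧ u ∈ zpowers x then F u else 0) =
      ∑ s, if orderOf s = p ∧ g⁻¹ * s * g ∈ zpowers x then F s else 0 := fun g => by
    refine Eq.trans (sum_congr rfl fun u _ => ?_) ((MulAut.conj g).toEquiv.sum_comp _)
    have e1 : (MulAut.conj g).toEquiv u = g * u * g⁻¹ := rfl
    have e2 : orderOf (g * u * g⁻¹) = orderOf u := (MulAut.conj g).orderOf_eq u
    rw [e1, e2, hF, show g⁻¹ * (g * u * g⁻¹) * g = u by group]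
  rw [h1, Nat.card_eq_fintype_card, ← nsmul_eq_mul, ← card_univ, ← sum_const, sum_congr rfl fun g _ => h2 g,
    sum_comm, sum_filter, mul_sum]
  refine sum_congr rfl fun s _ => ?_
  by_cases hs : orderOf s = p
  · simp only [hs, true_and, if_true]
    rw [← sum_filter, sum_const, nsmul_eq_mul, ← (cnt hp hx hC hs).1, Set.ncard_eq_toFinset_card']
    simp
  · simp [hs]

theorem classes (hp : p.Prime) (hx : orderOf x = p) (hC : centralizer ({x} : Set G) = zpowers x) :
    Nat.card {C : ConjClasses G // ∃ g ∈ C.carrier, orderOf g = p} *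
      Nat.card (normalizer (zpowers x : Set G)) = (p - 1) * p := by
  classical
  have := Fintype.ofFinite G
  have h1 := ti_sum hp hx hC (fun _ => 1) fun _ _ => rfl
  have h2 : #{s : G | orderOf s = p} * p =
      Nat.card {C : ConjClasses G // ∃ g ∈ C.carrier, orderOf g = p} * Nat.card G := by
    rw [card_eq_sum_card_fiberwise (f := ConjClasses.mk)
      (t := {C | ∃ g ∈ C.carrier, orderOf g = p}) fun s hs => by
        simpa using ⟨s, ConjClasses.mem_carrier_mk, by simpa using hs⟩,
      Nat.subtype_card ({C | ∃ g ∈ C.carrier, orderOf g = p} : Finset (ConjClasses G))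
        fun C => mem_filter_univ C, sum_mul, ← smul_eq_mul, ← sum_const]
    refine sum_congr rfl fun C hC' => ?_
    obtain ⟨g, hg, e⟩ := (mem_filter_univ C).1 hC'
    obtain rfl := ConjClasses.mem_carrier_iff_mk_eq.1 hg
    rw [← (centralizer ({g} : Set G)).index_mul_card, (cnt hp hx hC e).2, ← H24.ncard_carrier_eq_index,
      Set.ncard_eq_toFinset_card']
    congr 2
    ext s
    simp only [mem_filter, mem_univ, true_and, Set.mem_toFinset, ConjClasses.mem_carrier_iff_mk_eq,
      and_iff_right_iff_imp]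
    intro h
    obtain ⟨c, rfl⟩ := isConj_iff.1 (ConjClasses.mk_eq_mk_iff_isConj.1 h)
    exact ((MulAut.conj c).orderOf_eq s).symm.trans e
  simp only [sum_const, card_range, nsmul_eq_mul, mul_one] at h1
  rw [← Nat.cast_pred hp.pos] at h1
  have h3 : Nat.card G * (p - 1) = Nat.card (normalizer (zpowers x : Set G)) *
    #{s : G | orderOf s = p} := by exact_mod_cast h1
  refine Nat.eq_of_mul_eq_mul_left (Nat.card_pos (α := G)) ?_
  rw [← mul_assoc, ← mul_assoc, h3, mul_assoc _ _ p, h2]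
  ring

omit [Finite G] in
theorem exists_gen (hp : p.Prime) (hx : orderOf x = p) (hC : centralizer ({x} : Set G) = zpowers x) :
    ∃ y ∈ normalizer (zpowers x : Set G), ∃ e, Nat.card (normalizer (zpowers x : Set G)) = e * p ∧
      (e ≠ 1 → orderOf y = e) ∧ ∀ j : ℤ, y ^ j ∈ zpowers x → (e : ℤ) ∣ j := by
  have hc : Nat.card (zpowers x) = p := by rw [Nat.card_zpowers, hx]
  have : IsCyclic (MulAut (zpowers x)) := by
    have := ZMod.isCyclic_units_prime (hc ▸ hp)
    exact isCyclic_of_surjective _ (IsCyclic.mulAutMulEquiv (zpowers x)).symm.surjective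
  set f := (zpowers x).normalizerMonoidHom
  have hk : f.ker = (zpowers x).subgroupOf _ := by
    rw [normalizerMonoidHom_ker]
    congr 1
    rw [zpowers_eq_closure, centralizer_closure, hC, zpowers_eq_closure]
  obtain ⟨⟨_, y, rfl⟩, hy⟩ := IsCyclic.exists_generator (α := f.range)
  have h1 : orderOf (f y) = Nat.card f.range := by
    rw [← orderOf_eq_card_of_forall_mem_zpowers hy, ← orderOf_coe]
  have h2 : ∀ j, (y : G) ^ j ∈ zpowers x ↔ orderOf (f y) ∣ j := fun j => by
    rw [orderOf_dvd_iff_pow_eq_one, ← map_pow, ← MonoidHom.mem_ker, hk, mem_subgroupOf,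
      Subgroup.coe_pow]
  refine ⟨y, y.2, orderOf (f y), ?_, fun h => ?_, fun j hj => ?_⟩
  · rw [h1, ← index_ker, ← f.ker.index_mul_card, hk, ← hc,
      Nat.card_congr (subgroupOfEquivOfLe le_normalizer).toEquiv]
  · refine Nat.dvd_antisymm (orderOf_dvd_of_pow_eq_one ?_) ((h2 _).1 (by rw [pow_orderOf_eq_one]; exact one_mem _))
    by_contra h3
    refine h (Nat.dvd_one.1 ((h2 1).1 ?_))
    rw [pow_one]
    exact (isCC hp hx hC).mem_of_commute ((h2 _).2 dvd_rfl) h3 (Commute.self_pow _ _).eq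
  · rwa [orderOf_dvd_iff_zpow_eq_one, ← map_zpow, ← MonoidHom.mem_ker, hk, mem_subgroupOf]

theorem camina (hp : p.Prime) (hx : orderOf x = p) (hC : centralizer ({x} : Set G) = zpowers x)
    {a u : G} (ha : a ∈ normalizer (zpowers x : Set G)) (ha' : a ∉ zpowers x) (hu : u ∈ zpowers x) :
    ∃ v, v * a * v⁻¹ = a * u := by
  have h := isCC hp hx hC
  let φ : zpowers x → zpowers x := fun v =>
    ⟨a⁻¹ * v * a * v⁻¹, mul_mem (by simpa using (mem_normalizer_iff.1 (inv_mem ha) _).1 v.2) (inv_mem v.2)⟩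
  have : Function.Injective φ := fun v w e => by
    have e1 : a⁻¹ * v * a * (v : G)⁻¹ = a⁻¹ * w * a * (w : G)⁻¹ := congrArg Subtype.val e
    by_contra h1
    refine ha' (h.mem_of_commute (w⁻¹ * v).2 (fun e2 => h1 ?_) ?_)
    · exact (inv_mul_eq_one.1 (Subtype.ext e2)).symm
    · calc a * ((w : G)⁻¹ * v) = (w : G)⁻¹ * a * (a⁻¹ * w * a * (w : G)⁻¹) * v := by group
        _ = _ := by rw [← e1]; simp [mul_assoc]
  obtain ⟨v, hv⟩ := Finite.injective_iff_surjective.1 this ⟨u, hu⟩
  refine ⟨v, ?_⟩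
  rw [← show a⁻¹ * v * a * v⁻¹ = u from congrArg Subtype.val hv]
  simp [mul_assoc]

theorem main (hp : p.Prime) (hx : orderOf x = p) (hC : centralizer ({x} : Set G) = zpowers x)
    {t : ℕ} (ht : Nat.card {C : ConjClasses G // ∃ g ∈ C.carrier, orderOf g = p} = t) {χ : G → ℂ}
    (hχ : IsIrrCharacter G χ) (hd : charDegree χ + 1 = p) (h2 : Odd p) (hto : Odd t) :
    Even (commutator G).index := by
  classical
  have := Fintype.ofFinite G
  have hn := H28.Cfsg.IsIrrCharacter.sum_norm_sq hχ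
  obtain ⟨b, hb⟩ := exists_sum_eq (ψ := χ) (let ⟨n, ρ, _, h⟩ := hχ; ⟨n, ρ, h⟩)
    (normalizer (zpowers x : Set G))
  obtain ⟨d, ρ, -, rfl⟩ := hχ
  have hd1 : ρ.character 1 = d := by simp
  have hd2 : finrank ℂ (Fin d → ℂ) = d := by simp
  have hdp : d + 1 = p := by simpa [charDegree, hd1] using hd
  obtain ⟨y, hy, e, he, hye, hyA⟩ := exists_gen hp hx hC
  have hte : d = t * e := by
    have := classes hp hx hC
    rw [ht, he, ← mul_assoc] at this
    rw [Nat.eq_of_mul_eq_mul_right hp.pos this]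
    omega
  have hee : Even e := by
    have : Even d := by rw [← hdp, Nat.odd_add_one, Nat.not_odd_iff_even] at h2; exact h2
    rw [hte, Nat.even_mul] at this
    exact this.resolve_left (Nat.not_even_iff_odd.2 hto)
  have he1 : e ≠ 1 := by rintro rfl; simp at hee
  have hy1 := hye he1
  have he0 : 0 < e := hy1 ▸ orderOf_pos y
  obtain ⟨m, m1, m2, m3⟩ := eigen_fix ρ x
  obtain ⟨a, a1, -⟩ := eigen_fix ρ y
  rw [hx] at m1 m2 m3
  rw [hy1] at a1
  have hp0 : (p : ℂ) ≠ 0 := by exact_mod_cast hp.ne_zero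
  have cam : ∀ j : ℕ, y ^ j ≠ 1 → ∑ i ∈ range p, ρ.character (y ^ j * x ^ i) = p * ρ.character (y ^ j) :=
    fun j hj => by
      rw [sum_congr rfl (g := fun _ => ρ.character (y ^ j)) fun i _ => ?_]
      · simp
      obtain ⟨v, hv⟩ := camina hp hx hC (pow_mem hy j) (fun h => hj (by
        have := hyA j (by rwa [zpow_natCast])
        rwa [Int.natCast_dvd_natCast, ← hy1, orderOf_dvd_iff_pow_eq_one] at this))
        (pow_mem (mem_zpowers x) i)
      rw [← hv, Representation.char_conj]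
  have hsum : ∑ g : normalizer (zpowers x : Set G), ρ.character g =
      ∑ j ∈ range e, ∑ i ∈ range p, ρ.character (y ^ j * x ^ i) := by
    let ψ : Fin e × Fin p → normalizer (zpowers x : Set G) := fun z =>
      ⟨y ^ (z.1 : ℕ) * x ^ (z.2 : ℕ), mul_mem (pow_mem hy _) (le_normalizer (pow_mem (mem_zpowers x) _))⟩
    have : Function.Bijective ψ := by
      refine (Nat.bijective_iff_injective_and_card ψ).2 ⟨?_, by rw [he]; simp⟩
      rintro ⟨j, i⟩ ⟨j', i'⟩ h
      have h1 : y ^ (j : ℕ) * x ^ (i : ℕ) = y ^ (j' : ℕ) * x ^ (i' : ℕ) := congrArg Subtype.val h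
      have h3 := hyA (-(j' : ℕ) + (j : ℕ)) (by
        rw [zpow_add, zpow_neg, zpow_natCast, zpow_natCast, ← mul_inv_cancel_right (y ^ (j : ℕ)) (x ^ (i : ℕ)),
          h1, mul_assoc, inv_mul_cancel_left]
        exact mul_mem (pow_mem (mem_zpowers x) _) (inv_mem (pow_mem (mem_zpowers x) _)))
      have h4 := Int.eq_zero_of_dvd_of_natAbs_lt_natAbs h3 (by have := j.2; have := j'.2; omega)
      obtain rfl : j = j' := Fin.ext (by omega)
      rw [Fin.ext (pow_injOn_Iio_orderOf (hx ▸ i.2) (hx ▸ i'.2) (mul_left_cancel h1))]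
    rw [← this.sum_comp, Fintype.sum_prod_type, sum_range]
    exact sum_congr rfl fun j _ => (sum_range fun i => ρ.character (y ^ (j : ℕ) * x ^ i)).symm
  have hdiv : e ∣ m := by
    rw [hsum, ← sum_erase_add _ _ (mem_range.2 he0), sum_congr rfl fun j hj => cam j
      (pow_ne_one_of_lt_orderOf (mem_erase.1 hj).1 (hy1 ▸ mem_range.1 (mem_erase.1 hj).2)), ← mul_sum,
      sum_erase_eq_sub (mem_range.2 he0), a1, he] at hb
    simp only [pow_zero, one_mul, m1, hd1] at hb
    have h3 : ((e * a + m : ℕ) : ℂ) = (e * b + t * e : ℕ) := by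
      rw [← hte]
      push_cast at hb ⊢
      refine mul_left_cancel₀ hp0 ?_
      linear_combination hb
    have h4 : e * a + m = e * b + t * e := by exact_mod_cast h3
    exact (Nat.dvd_add_right (dvd_mul_right e a)).1
      (h4 ▸ dvd_add (dvd_mul_right e b) (dvd_mul_left e t))
  have hm : m = 0 := by
    by_contra h0
    have h3 := ti_sum hp hx hC (fun g => ‖ρ.character g‖ ^ 2) fun g s => by
      rw [Representation.char_conj]
    have h4 : ∑ s with orderOf s = p, ‖ρ.character s‖ ^ 2 ≤ Nat.card G :=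
      hn ▸ sum_le_sum_of_subset_of_nonneg (subset_univ _) fun _ _ _ => by positivity
    have hG : (0 : ℝ) < Nat.card G := by exact_mod_cast Nat.card_pos
    rw [he, hd1, Complex.norm_natCast] at h3
    have h5 : ∑ j ∈ range p, ‖ρ.character (x ^ j)‖ ^ 2 - d ^ 2 ≤ (e * p : ℕ) := by
      refine le_of_mul_le_mul_left ?_ hG
      rw [h3, mul_comm]
      exact mul_le_mul_of_nonneg_right h4 (by positivity)
    rw [hd2] at m2
    have h6 : p * (m ^ 2 + d) ≤ e * p + d ^ 2 + p * m := by
      have : (p : ℝ) * (m ^ 2 + d) ≤ (e * p : ℕ) + d ^ 2 + p * m := by linarith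
      exact_mod_cast this
    have h7 := Nat.le_of_dvd (Nat.pos_of_ne_zero h0) hdiv
    have h8 : 2 ≤ e := by omega
    have h9 : e + m ≤ m ^ 2 := by nlinarith
    have := hp.two_le
    subst hdp
    nlinarith
  have hdet := det_eq ρ y (hy1 ▸ hee) hto (by rw [hd2, hy1, hte]) fun j hj =>
    (mul_eq_zero.1 ((cam j hj).symm.trans (m3 hm _))).resolve_left hp0
  by_contra ho
  let f : G →* ℂ := (LinearMap.det : ((Fin d → ℂ) →ₗ[ℂ] (Fin d → ℂ)) →* ℂ).comp ρ
  have hk : f.toHomUnits (y ^ (commutator G).index) = 1 :=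
    Abelianization.commutator_subset_ker _ ((commutator G).pow_index_mem y)
  have h3 : f (y ^ (commutator G).index) = 1 := congrArg Units.val hk
  rw [map_pow, show f y = -1 from hdet, (Nat.not_even_iff_odd.1 ho).neg_one_pow] at h3
  norm_num at h3

end H87.DP
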