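import Cfsg.Agent.H2.KpSpec

/-! Tower KP, slot B3: peeling a block system. -/

set_option autoImplicit false

namespace H87.KpB3

open Equiv H2.Ln H2.Kp

theorem jobB3 : H2.Kp.Peel → H2.Kp.B3 := by
  intro peel Γ α β _ _ _ _ _ w S κ g v n hl K b c B pt pr b1 bn cn u hu
  have un : ∀ (x : Perm β) {i j j'}, (∀ a ∈ B i, x a ∈ B j) → (∀ a ∈ B i, x a ∈ B j') → j = j' :=
    fun x i j j' h h' => by
      obtain ⟨a, ha⟩ := Finset.card_pos.1 (show 0 < (B i).card by rw [pt.1]; exact b1)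
      by_contra ne
      exact Finset.disjoint_left.1 (pt.2 j j' ne) (h a ha) (h' a ha)
  choose j hj using fun (x : K) i => pr (S.φ x) ⟨x, x.2, rfl⟩ i
  let act : MulAction K (Fin c) :=
    { smul := j
      one_smul := fun i => un (S.φ (1 : K)) (hj 1 i) fun a ha => by simpa using ha
      mul_smul := fun x y i => un (S.φ (x * y : K)) (hj (x * y) i) fun a ha => by
        rw [Subgroup.coe_mul, map_mul]
        exact hj x _ _ (hj y i a ha) }
  let ψ : K →* Perm (Fin c) := MulAction.toPermHom K (Fin c)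
  have h0 := hl.act K (ψ.ker.map K.subtype) (Fin c) ψ (by rwa [Fintype.card_fin])
    (Subgroup.map_subtype_le _) fun x => ⟨fun hx => ⟨x, hx, rfl⟩, fun ⟨y, hy, e⟩ => by
      rwa [show x = y from Subtype.ext e.symm]⟩
  rw [Fintype.card_fin] at h0
  obtain ⟨d, rfl⟩ := Nat.exists_eq_add_of_le hu
  rw [Nat.add_sub_cancel_left]
  suffices h : ∀ e t, t + e = u + d → ∃ L ≤ K, κ K ≤ g (u + d) * g (w * b) ^ e * κ L ∧
      (∀ x ∈ L, ∀ i, ∀ a ∈ B i, S.φ x a ∈ B i) ∧ ∀ i, t ≤ i.val → Disjoint (S.bs L) (B i) from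
    h d u rfl
  intro e
  induction e with
  | zero =>
    refine fun t ht => ⟨_, Subgroup.map_subtype_le ψ.ker, by simpa using h0, ?_,
      fun i hi => by omega⟩
    rintro _ ⟨x, hx, rfl⟩ i a ha
    have : j x i = i := DFunLike.congr_fun (show ψ x = 1 from hx) i
    exact this ▸ hj x i a ha
  | succ e ih =>
    intro t ht
    obtain ⟨L, hL, h1, h2, h3⟩ := ih (t + 1) (by omega)
    have p := (peel Γ α β w S κ g v n hl L).1 (B ⟨t, by omega⟩) (fun x hx => h2 x hx _)
      (by rwa [pt.1])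
    rw [pt.1] at p
    refine ⟨S.fb L (B ⟨t, by omega⟩), (S.fb_le _ _).trans hL, ?_,
      fun x hx => h2 x (S.fb_le _ _ hx), fun i hi => ?_⟩
    · rw [pow_succ, ← mul_assoc, mul_assoc]
      exact h1.trans (Nat.mul_le_mul_left _ p)
    · have sub := S.bs_fb L (B ⟨t, by omega⟩)
      rcases hi.lt_or_eq with hi | rfl
      · exact (h3 i hi).mono_left (sub.trans Finset.sdiff_subset)
      · exact Finset.sdiff_disjoint.mono_left sub

end H87.KpB3
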