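import Cfsg.Agent.Base
import Cfsg.Agent.H9.PBasic
import Cfsg.Agent.H28.Degree
import Cfsg.Agent.H28.CharCenter
import Cfsg.Agent.H29.Codeg
import Cfsg.Agent.H29.GalChar
import Cfsg.Agent.H32.Clifford
import Cfsg.Agent.H44.CD3

/-! Orders of `p`-groups with a faithful character of given degree and field of values
(Schur, Feit). -/

set_option autoImplicit false

namespace H87

open Cfsg H28 H29 H32 H33 MulAction

universe u

/-- The number of Galois conjugates of a complex function. -/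
noncomputable def galN {X : Type*} (χ : X → ℂ) : ℕ := (stabilizer (RingAut ℂ) χ).index

theorem mem_galStab {X : Type*} {χ : X → ℂ} {σ : RingAut ℂ} :
    σ ∈ stabilizer (RingAut ℂ) χ ↔ ∀ x, σ (χ x) = χ x := funext_iff

theorem galN_comp {X Y : Type*} {f : X → Y} (hf : Function.Surjective f) (η : Y → ℂ) :
    galN (fun x => η (f x)) = galN η := by
  unfold galN
  congr 1
  ext σ
  simp only [mem_galStab, hf.forall]

theorem isIrr_of_mem_orbit {G : Type*} [Group G] [Finite G] {χ ψ : G → ℂ} (h : IsIrrCharacter G χ)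
    (hψ : ψ ∈ orbit (RingAut ℂ) χ) : IsIrrCharacter G ψ := by
  obtain ⟨σ, rfl⟩ := hψ
  exact h.gal σ.toRingHom

theorem finite_galOrbit {G : Type*} [Group G] [Finite G] {χ : G → ℂ} (h : IsIrrCharacter G χ) :
    (orbit (RingAut ℂ) χ).Finite :=
  (Set.finite_range fun ψ : IrrCharacter G => ψ.1).subset fun ψ hψ =>
    ⟨⟨ψ, isIrr_of_mem_orbit h hψ⟩, rfl⟩

theorem galN_pos {G : Type*} [Group G] [Finite G] {χ : G → ℂ} (h : IsIrrCharacter G χ) :
    0 < galN χ := by
  rw [galN, index_stabilizer, Set.ncard_pos (finite_galOrbit h)]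
  exact ⟨χ, mem_orbit_self χ⟩

theorem totient_le_galN {X : Type*} {χ : X → ℂ} (h : (orbit (RingAut ℂ) χ).Finite) {x : X} {c m : ℕ}
    (hc : c ≠ 0) (hm : m ≠ 0) {ω : ℂ} (hω : IsPrimitiveRoot ω m) (hx : χ x = c * ω) :
    m.totient ≤ galN χ := by
  rw [galN, index_stabilizer, Set.ncard_eq_toFinset_card _ h, Nat.totient_eq_card_coprime]
  refine Finset.card_le_card_of_forall_subsingleton (fun k ψ => ψ x = c * ω ^ k) (fun k hk => ?_)
    fun ψ _ a ha b hb => ?_
  · obtain ⟨σ, hσ⟩ := exists_ringEquiv_pow hm (Finset.mem_filter.1 hk).2.symm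
    refine ⟨(show RingAut ℂ from σ) • χ, h.mem_toFinset.2 (mem_orbit _ _), ?_⟩
    change σ (χ x) = _
    rw [hx, map_mul, map_natCast, hσ ω hω.pow_eq_one]
  · exact hω.pow_inj (Finset.mem_range.1 (Finset.mem_filter.1 ha.1).1)
      (Finset.mem_range.1 (Finset.mem_filter.1 hb.1).1)
      (mul_left_cancel₀ (Nat.cast_ne_zero.2 hc) (ha.2.symm.trans hb.2))

theorem galN_le_finrank {X : Type*} (χ : X → ℂ)
    [FiniteDimensional ℚ (IntermediateField.adjoin ℚ (Set.range χ))] :
    galN χ ≤ Module.finrank ℚ (IntermediateField.adjoin ℚ (Set.range χ)) := by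
  rw [← AlgHom.card ℚ _ ℂ, ← Nat.card_eq_fintype_card, galN, index_stabilizer,
    ← Nat.card_coe_set_eq]
  choose σ hσ using fun ψ : orbit (RingAut ℂ) χ => ψ.2
  refine Nat.card_le_card_of_injective (fun ψ => ((σ ψ).toRingHom.toRatAlgHom).comp
    (IntermediateField.val _)) fun a b hab => Subtype.ext (funext fun x => ?_)
  rw [← hσ a, ← hσ b]
  exact DFunLike.congr_fun hab ⟨χ x, IntermediateField.subset_adjoin _ _ ⟨x, rfl⟩⟩

theorem charKer_gal {G : Type*} [Group G] (θ : G → ℂ) (σ : RingAut ℂ) :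
    charKer (σ • θ) = charKer θ := by
  ext g
  simp only [mem_charKer_iff]
  exact forall_congr' fun x => σ.injective.eq_iff

variable {p : ℕ} [hp : Fact p.Prime]

theorem exists_ind_index {P : Type*} [Group P] [Fintype P] (hP : IsPGroup p P) {χ : P → ℂ}
    (hχ : IsIrrCharacter P χ) (h1 : charDegree χ ≠ 1) : ∃ (H : Subgroup P) (θ : H → ℂ),
      IsCoatom H ∧ IsIrrCharacter H θ ∧ indFun H θ = χ := by
  have := hP.isNilpotent
  obtain ⟨L, lam, hL⟩ := H44.monomial_of_abelian_normal ⊥ (by simp) inferInstance hχ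
  obtain ⟨H, hH, hle⟩ := (eq_top_or_exists_le_coatom L).resolve_left fun e => h1 (by
    rw [hL, (isCharacter_of_hom lam).charDegree_indFun, charDegree_hom, e, Subgroup.index_top])
  have := Fintype.ofFinite H
  have h2 := indFun_subgroupOf L H hle fun h => (lam h : ℂ)
  exact ⟨H, _, hH, irr_of_indFun_irr
    ((isCharacter_of_hom lam).comp (Subgroup.subgroupOfEquivOfLe hle).toMonoidHom).indFun
    (by convert hχ using 1; exact h2.trans hL.symm), h2.trans hL.symm⟩

theorem order_bound (a : ℕ) : ∀ {P : Type u} [Group P] [Finite P] {χ : P → ℂ} (t : ℕ),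
    Nat.card P = p ^ a → IsIrrCharacter P χ → charKer χ = ⊥ → galN χ < (p - 1) * p ^ (t + 1) →
    (p - 1) * a + 1 ≤ charDegree χ + (p - 1) * (t + 1) * charDegree χ := by
  induction a using Nat.strong_induction_on with | _ a ih => ?_
  intro P _ _ χ t hP hχ hk hN
  have := Fintype.ofFinite P
  have hq : 0 < p - 1 := Nat.sub_pos_of_lt hp.out.one_lt
  by_cases h1 : charDegree χ = 1
  · obtain ⟨f, rfl⟩ := hχ.isCharacter.exists_hom (hχ.isCharacter.charDegree_eq_one_iff.1 h1)
    have hf : Function.Injective f := (injective_iff_map_eq_one f).2 fun g hg =>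
      Subgroup.mem_bot.1 (hk ▸ hχ.mem_charKer.2 (by simp [hg]))
    obtain ⟨g, hg⟩ := (isCyclic_of_injective_ringHom ((Units.coeHom ℂ).comp f)
      (Units.val_injective.comp hf)).exists_generator
    have ho := orderOf_eq_card_of_forall_mem_zpowers hg
    have h2 := totient_le_galN (finite_galOrbit hχ) (x := g) one_ne_zero (orderOf_pos g).ne'
      (IsPrimitiveRoot.coe_units_iff.2 (orderOf_injective f hf g ▸ IsPrimitiveRoot.orderOf (f g)))
      (by simp)
    rw [h1, mul_one, add_comm 1, Nat.add_le_add_iff_right]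
    refine Nat.mul_le_mul_left _ ?_
    rcases a with _ | a
    · omega
    rw [ho, hP, Nat.totient_prime_pow_succ hp.out, mul_comm] at h2
    exact (Nat.pow_lt_pow_iff_right hp.out.one_lt).1 (Nat.lt_of_mul_lt_mul_left (h2.trans_lt hN))
  have hPp := IsPGroup.of_card hP
  obtain ⟨H, θ, hH, hθ, rfl⟩ := exists_ind_index hPp hχ h1
  have := H9.normal_of_isCoatom hPp hH
  have hi := H9.index_of_isCoatom hPp hH
  have hI : inertia θ = H :=
    le_antisymm ((isIrrCharacter_indFun_iff hθ).1 hχ) (le_inertia hθ.isClassFunction)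
  have hc : (conjSet θ).card = p := by rw [card_conjSet, hI, hi]
  have hker : ∀ h : H, (∀ g : P, h ∈ charKer (cj g θ)) → h = 1 := fun h hh => by
    have h2 := congrFun (res_indFun_normal θ) h
    have h3 := congrFun (res_indFun_normal θ) 1
    simp only [Pi.smul_apply, Finset.sum_apply, fun g => apply_of_mem_charKer (hh g)] at h2 h3
    exact Subtype.ext (Subgroup.mem_bot.1 (hk ▸ hχ.mem_charKer.2 (h2.trans h3.symm)))
  have hcj : ∀ (g : P) (φ : H → ℂ), IsCharacter H φ → charKer (cj g φ) =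
      (charKer φ).comap (MulAut.conjNormal g : MulAut H).toMonoidHom := fun g φ hφ =>
    hφ.charKer_comp (MulAut.conjNormal g : MulAut H).toMonoidHom
  have hmem : ∀ σ ∈ stabilizer (RingAut ℂ) (indFun H θ), σ • θ ∈ conjSet θ := fun σ hσ => by
    by_contra h2
    have h3 := classInner_indFun_of_not_mem hθ (hθ.gal σ.toRingHom) h2
    rw [show indFun H (fun g => σ.toRingHom (θ g)) = indFun H θ from funext fun g =>
      (indFun_ringHom H θ σ.toRingHom g).trans (mem_galStab.1 hσ g), hχ.classInner_self] at h3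
    exact one_ne_zero h3
  have := hθ.charKer_normal
  obtain ⟨η, hη, hη'⟩ := hθ.exists_quotient _ le_rfl
  have hηk : charKer η = ⊥ := charKer_eq_bot_of_forall fun g hg => by
    obtain ⟨g, rfl⟩ := QuotientGroup.mk_surjective g
    exact (QuotientGroup.eq_one_iff g).2 (hθ.mem_charKer.2 (by rw [← hη', hg, ← hη']; rfl))
  have hηN : galN η = galN θ := by
    rw [← galN_comp QuotientGroup.mk_surjective η, funext hη']
  have hηd : charDegree η = charDegree θ := charDegree_congr (hη' 1)
  obtain ⟨b, hb⟩ := IsPGroup.iff_card.1 ((hPp.to_subgroup H).to_quotient (charKer θ))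
  have hH' : Nat.card H * p = p ^ a := by rw [← hP, ← H.card_mul_index, hi]
  obtain ⟨a, rfl⟩ : ∃ a', a = a' + 1 := by
    rcases a with _ | a
    · exact absurd (Nat.eq_one_of_mul_eq_one_left hH') hp.out.ne_one
    · exact ⟨a, rfl⟩
  rw [pow_succ, Nat.mul_right_cancel_iff hp.out.pos] at hH'
  have hba : b < a + 1 := Nat.lt_succ_of_le ((Nat.pow_dvd_pow_iff_le_right hp.out.one_lt).1
    (by rw [← hb, ← hH']; exact Subgroup.card_quotient_dvd_card _))
  have hf := hθ.charDegree_pos
  rw [hθ.isCharacter.charDegree_indFun, hi]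
  obtain ⟨q, hq'⟩ : ∃ q, p = q + 1 := ⟨p - 1, by omega⟩
  have hq1 : p - 1 = q := by omega
  by_cases hK : charKer θ = ⊥
  · have h2 : stabilizer (RingAut ℂ) θ ≤ stabilizer (RingAut ℂ) (indFun H θ) := fun σ hσ =>
      mem_galStab.2 fun g => by
        rw [← show indFun H (fun g => σ.toRingHom (θ g)) g = σ _ from indFun_ringHom H θ _ g]
        exact congrArg (fun φ => indFun H φ g) hσ
    have h3 : galN θ ≤ p * galN (indFun H θ) := by
      rw [galN, ← Subgroup.relIndex_mul_index h2]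
      refine Nat.mul_le_mul_right _ ?_
      change (stabilizer (stabilizer (RingAut ℂ) (indFun H θ)) θ).index ≤ _
      rw [index_stabilizer, ← hc, ← Set.ncard_coe_finset]
      exact Set.ncard_le_ncard (by rintro _ ⟨σ, rfl⟩; exact hmem σ σ.2) (Finset.finite_toSet _)
    have h4 := ih b hba (t + 1) hb hη hηk (by
      rw [hηN, pow_succ', mul_left_comm]
      exact h3.trans_lt (Nat.mul_lt_mul_of_pos_left hN hp.out.pos))
    have h5 : b = a := by
      rw [← Subgroup.index_eq_card, hK, Subgroup.index_bot, hH'] at hb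
      exact (Nat.pow_right_injective hp.out.two_le hb).symm
    rw [hηd, hq1, h5] at h4
    rw [hq1] at hq ⊢
    rw [hq']
    have h6 : q * 1 ≤ q * (q * (t + 1) * charDegree θ) :=
      Nat.mul_le_mul_left _ (Nat.succ_le_of_lt (by positivity))
    nlinarith
  · have h2 : stabilizer (RingAut ℂ) (indFun H θ) ≤ stabilizer (RingAut ℂ) θ := fun σ hσ => by
      obtain ⟨g, hg⟩ := mem_conjSet.1 (hmem σ hσ)
      by_contra h3
      let T : Subgroup P :=
        { carrier := {x | charKer (cj x θ) = charKer θ}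
          one_mem' := by simp
          mul_mem' := fun {x y} hx hy => by
            change _ = _ at hx hy ⊢
            rw [cj_mul, hcj _ _ (isCharacter_cj hθ.isCharacter x), hx, ← hcj _ _ hθ.isCharacter, hy]
          inv_mem' := fun {x} hx => by
            change _ = _ at hx ⊢
            rw [hcj _ _ hθ.isCharacter, ← hx, ← hcj _ _ (isCharacter_cj hθ.isCharacter x), cj_inv_cj,
              hx] }
      have h4 : T = ⊤ := hH.2 T (lt_of_le_of_ne
        (fun x hx => congrArg charKer (cj_of_mem hθ.isClassFunction hx)) fun e => h3 (by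
          have h5 : g ∈ T := by change _ = _; rw [← hg, charKer_gal]
          exact hg.trans (cj_of_mem hθ.isClassFunction (e ▸ h5))))
      refine hK (eq_bot_iff.2 fun h hh => hker h fun x => ?_)
      have h5 : x ∈ T := h4 ▸ Subgroup.mem_top x
      rwa [show charKer (cj x θ) = charKer θ from h5]
    have h4 := ih b hba t hb hη hηk (by
      rw [hηN]
      exact (Nat.le_of_dvd (galN_pos hχ) (Subgroup.index_dvd_of_le h2)).trans_lt hN)
    have h5 : a ≤ b * p := by
      have h6 := Subgroup.index_iInf_le fun φ : conjSet θ => charKer φ.1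
      rw [show (⨅ φ : conjSet θ, charKer φ.1) = ⊥ from eq_bot_iff.2 fun h hh => hker h fun g =>
          Subgroup.mem_iInf.1 hh ⟨_, cj_mem_conjSet θ g⟩, Subgroup.index_bot, hH', Finset.prod_congr rfl (g := fun _ => p ^ b) fun φ _ => by
          obtain ⟨g, hg⟩ := mem_conjSet.1 φ.2
          rw [hg, hcj _ _ hθ.isCharacter, Subgroup.index_comap_of_surjective _
            (f := (MulAut.conjNormal g : MulAut H).toMonoidHom) (MulEquiv.surjective _), ← hb, Subgroup.index_eq_card],
        Finset.prod_const, Finset.card_univ, Fintype.card_coe, hc, ← pow_mul] at h6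
      exact (Nat.pow_le_pow_iff_right hp.out.one_lt).1 h6
    rw [hηd, hq1] at h4
    rw [hq1]
    rw [hq'] at h5 ⊢
    nlinarith [Nat.mul_le_mul_left q h5, Nat.mul_le_mul_left (q + 1) h4]

theorem sub_one_le_galN {P : Type*} [Group P] [Finite P] (hP : IsPGroup p P) {θ : P → ℂ}
    (hθ : IsIrrCharacter P θ) (h : charKer θ ≠ ⊤) : p - 1 ≤ galN θ := by
  have := hθ.charKer_normal
  have := hP.isNilpotent
  obtain ⟨z, -, hz, hzp, hzc⟩ := H9.exists_central_step hP (N := charKer θ) (K := ⊤)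
    (fun e => h (top_le_iff.1 e))
  obtain ⟨c, hc⟩ := mem_charCenter_iff.1 (hθ.mem_charCenter_iff_commutator.2 hzc)
  have h1 : ∀ n : ℕ, θ (z ^ n) = c ^ n * θ 1 := fun n => by
    induction n with
    | zero => simp
    | succ n ih => rw [pow_succ', hc, ih]; ring
  have h2 : (c : ℂ) ^ p = 1 := mul_right_cancel₀ hθ.apply_one_ne_zero
    (by rw [← h1, apply_of_mem_charKer hzp, one_mul])
  have h3 : (c : ℂ) ≠ 1 := fun e => hz (hθ.mem_charKer.2 (by simpa [e] using h1 1))
  rw [← Nat.totient_prime hp.out]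
  exact totient_le_galN (finite_galOrbit hθ) (x := z) hθ.charDegree_pos.ne' hp.out.ne_zero
    (orderOf_eq_prime h2 h3 ▸ IsPrimitiveRoot.orderOf (c : ℂ))
    (by rw [hθ.cast_charDegree, mul_comm, ← hc, mul_one])

theorem irr_bound {P : Type u} [Group P] [Finite P] (hP : IsPGroup p P) {θ : P → ℂ}
    (hθ : IsIrrCharacter P θ) {a M : ℕ} (ha : (charKer θ).index = p ^ a)
    (hM : galN θ * charDegree θ < M) :
    a ≤ ∑ i ∈ Finset.range M, galN θ * charDegree θ / ((p - 1) * p ^ i) := by
  rcases a.eq_zero_or_pos with rfl | h0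
  · exact Nat.zero_le _
  have hq : 0 < p - 1 := Nat.sub_pos_of_lt hp.out.one_lt
  have h1 := sub_one_le_galN hP hθ fun e => by
    rw [e, Subgroup.index_top] at ha
    exact (Nat.one_lt_pow h0.ne' hp.out.one_lt).ne ha
  have := hθ.charKer_normal
  obtain ⟨η, hη, hη'⟩ := hθ.exists_quotient _ le_rfl
  have hηk : charKer η = ⊥ := charKer_eq_bot_of_forall fun g hg => by
    obtain ⟨g, rfl⟩ := QuotientGroup.mk_surjective g
    exact (QuotientGroup.eq_one_iff g).2 (hθ.mem_charKer.2 (by rw [← hη', hg, ← hη']; rfl))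
  have hηN : galN η = galN θ := by
    rw [← galN_comp QuotientGroup.mk_surjective η, funext hη']
  set t := Nat.log p (galN θ / (p - 1))
  have h2 : (p - 1) * p ^ t ≤ galN θ := by
    rw [mul_comm, ← Nat.le_div_iff_mul_le hq]
    exact Nat.pow_log_le_self p (Nat.div_pos h1 hq).ne'
  have h3 : galN θ < (p - 1) * p ^ (t + 1) := by
    rw [mul_comm, ← Nat.div_lt_iff_lt_mul hq]
    exact Nat.lt_pow_succ_log_self hp.out.one_lt _
  have h4 := order_bound a t ha hη hηk (hηN ▸ h3)
  obtain ⟨b, hb⟩ := hθ.exists_pow_charDegree hP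
  rw [show charDegree η = charDegree θ from charDegree_congr (hη' 1), hb] at h4
  rw [hb] at hM ⊢
  have h5 : (p - 1) * p ^ (t + b) ≤ galN θ * p ^ b := by
    rw [pow_add, ← mul_assoc]; exact Nat.mul_le_mul_right _ h2
  have h6 : t + b + 1 ≤ M := (Nat.lt_pow_self hp.out.one_lt).trans_le
    ((Nat.le_mul_of_pos_left _ hq).trans (h5.trans hM.le))
  refine le_trans ?_ (Finset.sum_le_sum_of_subset (Finset.range_subset_range.2 h6))
  have h7 : ∑ i ∈ Finset.range (t + b + 1), p ^ i ≤
      ∑ i ∈ Finset.range (t + b + 1), galN θ * p ^ b / ((p - 1) * p ^ i) := by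
    rw [← Finset.sum_range_reflect]
    refine Finset.sum_le_sum fun i hi => ?_
    have := Finset.mem_range.1 hi
    rw [Nat.le_div_iff_mul_le (Nat.mul_pos hq (pow_pos hp.out.pos i)), mul_left_comm, ← pow_add,
      show t + b + 1 - 1 - i + i = t + b by omega]
    exact h5
  refine le_trans ?_ h7
  obtain ⟨q, rfl⟩ : ∃ q, p = q + 1 := ⟨p - 1, by omega⟩
  rw [Nat.add_sub_cancel] at h4 hq
  have h8 := geom_sum_mul_add q (t + b + 1)
  have h9 := one_add_mul_le_pow (show (-2 : ℤ) ≤ q by omega) (t + 1)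
  have h10 : 1 + (t + 1) * q ≤ (q + 1) ^ (t + 1) := by rw [add_comm q 1]; exact_mod_cast h9
  have h11 := Nat.mul_le_mul_right ((q + 1) ^ b) h10
  rw [← pow_add, show t + 1 + b = t + b + 1 by ring, ← h8] at h11
  exact Nat.le_of_mul_le_mul_left (by nlinarith) hq

/-- Schur's bound for a rational valued character of a `p`-group. -/
theorem rat_bound {P : Type u} [Group P] [Finite P] (hP : IsPGroup p P) (M n : ℕ) :
    ∀ {ψ : P → ℂ} {a : ℕ}, IsCharacter P ψ → (∀ (σ : RingAut ℂ) x, σ (ψ x) = ψ x) →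
      charDegree ψ = n → n < M → (charKer ψ).index = p ^ a →
      a ≤ ∑ i ∈ Finset.range M, n / ((p - 1) * p ^ i) := by
  induction n using Nat.strong_induction_on with | _ n ih => ?_
  intro ψ a hψ hσ hn hM ha
  classical
  have := Fintype.ofFinite P
  by_cases h0 : ψ = 0
  · rw [show charKer ψ = ⊤ from eq_top_iff.2 fun g _ x => by rw [h0]; rfl, Subgroup.index_top,
      eq_comm, Nat.pow_eq_one] at ha
    rw [ha.resolve_left hp.out.ne_one]
    exact Nat.zero_le _
  obtain ⟨θ, hθ, h1⟩ := hψ.exists_constituent h0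
  set O := (finite_galOrbit hθ).toFinset
  have hO : ∀ φ, φ ∈ O ↔ φ ∈ orbit (RingAut ℂ) θ := fun φ => Set.Finite.mem_toFinset _
  have hOi : ∀ φ ∈ O, IsIrrCharacter P φ := fun φ hφ => isIrr_of_mem_orbit hθ ((hO φ).1 hφ)
  have hΘ : IsCharacter P (∑ φ ∈ O, φ) := isCharacter_sum _ fun φ hφ => (hOi φ hφ).isCharacter
  have hψ' : IsCharacter P (ψ - ∑ φ ∈ O, φ) := by
    refine (hψ.isClassFunction.sub hΘ.isClassFunction).isCharacter_of_nat fun ξ hξ => ?_
    rw [classInner_sub_left, classInner_sum_left,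
      Finset.sum_congr rfl fun φ hφ => (hOi φ hφ).classInner_eq hξ, Finset.sum_ite_eq']
    obtain ⟨m, hm⟩ := hψ.classInner_nat hξ.isCharacter
    split_ifs with h2
    · obtain ⟨σ, rfl⟩ := (hO ξ).1 h2
      have h3 := classInner_gal ψ hθ.isGeneralizedCharacter σ.toRingHom
      rw [show (fun g => σ.toRingHom (ψ g)) = ψ from funext (hσ σ)] at h3
      rcases m with _ | m
      · exact absurd (σ.injective (h3.symm.trans (hm.trans (by simp)))) h1
      · exact ⟨m, by rw [hm]; push_cast; ring⟩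
    · exact ⟨m, by rw [hm, sub_zero]⟩
  have hΘσ : ∀ (σ : RingAut ℂ) x, σ ((∑ φ ∈ O, φ) x) = (∑ φ ∈ O, φ) x := fun σ x => by
    simp only [Finset.sum_apply, map_sum]
    exact Finset.sum_nbij' (σ • ·) (σ⁻¹ • ·)
      (fun φ hφ => (hO _).2 (mem_orbit_of_mem_orbit _ ((hO _).1 hφ)))
      (fun φ hφ => (hO _).2 (mem_orbit_of_mem_orbit _ ((hO _).1 hφ)))
      (fun φ _ => inv_smul_smul σ φ) (fun φ _ => smul_inv_smul σ φ) fun φ _ => rfl
  have hO1 : ∀ φ ∈ O, ∀ g ∈ charKer θ, φ g = charDegree θ := fun φ hφ g hg => by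
    obtain ⟨σ, rfl⟩ := (hO φ).1 hφ
    change σ (θ g) = _
    rw [apply_of_mem_charKer hg, ← hθ.cast_charDegree, map_natCast]
  have hd : n = galN θ * charDegree θ + charDegree (ψ - ∑ φ ∈ O, φ) := by
    rw [← hn]
    apply charDegree_eq
    rw [Nat.cast_add, hψ'.cast_charDegree, Pi.sub_apply, Finset.sum_apply,
      Finset.sum_congr rfl fun φ hφ => hO1 φ hφ 1 (one_mem _), Finset.sum_const, galN,
      index_stabilizer, Set.ncard_eq_toFinset_card _ (finite_galOrbit hθ), nsmul_eq_mul]
    push_cast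
    ring
  obtain ⟨a1, h2⟩ := hP.index (charKer θ)
  obtain ⟨a2, h3⟩ := hP.index (charKer (ψ - ∑ φ ∈ O, φ))
  have h4 := Nat.mul_pos (galN_pos hθ) hθ.charDegree_pos
  have h5 := irr_bound hP hθ h2 (M := M) (by omega)
  have h6 := ih _ (by omega) hψ' (fun σ x => by rw [Pi.sub_apply, map_sub, hσ, hΘσ]) rfl
    (by omega) h3
  have h7 : charKer θ ⊓ charKer (ψ - ∑ φ ∈ O, φ) ≤ charKer ψ := fun g hg => by
    have h8 := apply_of_mem_charKer hg.2
    simp only [Pi.sub_apply, Finset.sum_apply] at h8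
    rw [Finset.sum_congr rfl fun φ hφ => hO1 φ hφ g hg.1,
      Finset.sum_congr rfl fun φ hφ => hO1 φ hφ 1 (one_mem _), sub_left_inj] at h8
    exact hψ.mem_charKer.2 h8
  have h8 := (Subgroup.index_antitone h7).trans Subgroup.index_inf_le
  rw [ha, h2, h3, ← pow_add, Nat.pow_le_pow_iff_right hp.out.one_lt] at h8
  refine h8.trans ((Nat.add_le_add h5 h6).trans ?_)
  rw [← Finset.sum_add_distrib, hd]
  exact Finset.sum_le_sum fun i _ => Nat.div_add_div_le_add_div

end H87
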